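import Cfsg.Agent.Forms.UnitaryGeom
import Cfsg.Agent.Classical.UTrans
import Cfsg.Prelude.Def_ClassicalGeometry

/-!
Stabilisers of subspaces in the unitary groups: totally isotropic subspaces are permuted
transitively, and the orders of their stabilisers.
-/

set_option autoImplicit false

namespace Cfsg.Agent.Forms

open Cfsg.Agent.Classical Module

universe u

variable {F : Type u} [Field F] {n q : ℕ}

/-- Totally isotropic subspaces of dimension `k`. -/
abbrev TISub (n k : ℕ) (F : Type u) [Field F] (q : ℕ) : Type u :=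
  {W : Submodule F (Fin n → F) // finrank F W = k ∧
    ∀ u ∈ W, ∀ v ∈ W, Cfsg.hermForm n F q u v = 0}

/-- The stabiliser of a subspace in the unitary group. -/
def ustab (q : ℕ) (W : Submodule F (Fin n → F)) : Subgroup (U.UG n F q) where
  carrier := {g | ∀ v, v ∈ W ↔ g.1 v ∈ W}
  mul_mem' {a b} ha hb v := by rw [Subgroup.coe_mul, LinearEquiv.mul_apply]; exact (hb v).trans (ha _)
  one_mem' v := Iff.rfl
  inv_mem' {a} ha v := by
    rw [ha ((a⁻¹).1 v), ← LinearEquiv.mul_apply, ← Subgroup.coe_mul, mul_inv_cancel]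
    rfl

theorem mem_ustab_iff {W : Submodule F (Fin n → F)} {g : U.UG n F q} :
    g ∈ ustab q W ↔ W.map g.1.toLinearMap = W := by
  constructor
  · intro h
    ext v
    constructor
    · rintro ⟨w, hw, rfl⟩; exact (h w).1 hw
    · intro hv
      refine ⟨g.1.symm v, ?_, g.1.apply_symm_apply v⟩
      rw [SetLike.mem_coe, h (g.1.symm v), LinearEquiv.apply_symm_apply]
      exact hv
  · intro h v
    conv_rhs => rw [← h]
    exact ⟨fun hv => ⟨v, hv, rfl⟩, fun ⟨w, hw, e⟩ => g.1.injective e ▸ hw⟩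

variable (hF : U.SqField F q)
include hF

theorem UG_transitive_TISub {k : ℕ} (W W' : TISub n k F q) :
    ∃ g : U.UG n F q, W.1.map g.1.toLinearMap = W'.1 := by
  obtain ⟨g, hg⟩ := UG_witt hF
    (W'.1.subtype.comp (LinearEquiv.ofFinrankEq W.1 W'.1 (W.2.1.trans W'.2.1.symm)).toLinearMap)
    (Subtype.val_injective.comp (LinearEquiv.injective _))
    (fun x y => (W'.2.2 _ (Subtype.prop _) _ (Subtype.prop _)).trans (W.2.2 _ x.2 _ y.2).symm)
  refine ⟨g, Submodule.eq_of_le_of_finrank_eq ?_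
    (by rw [LinearEquiv.finrank_map_eq g.1 W.1, W.2.1, W'.2.1])⟩
  rintro _ ⟨w, hw, rfl⟩
  rw [LinearEquiv.coe_coe, hg ⟨w, hw⟩]
  exact Subtype.prop _

/-- Orbit-stabiliser for totally isotropic subspaces. -/
theorem card_ustab_mul {k : ℕ} (W : TISub n k F q) :
    Nat.card (ustab q W.1) * Nat.card (TISub n k F q) = Nat.card (U.UG n F q) := by
  let f : U.UG n F q → TISub n k F q := fun g => ⟨W.1.map g.1.toLinearMap,
    by rw [LinearEquiv.finrank_map_eq g.1 W.1, W.2.1], by
      rintro _ ⟨u, hu, rfl⟩ _ ⟨v, hv, rfl⟩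
      exact (U.UG_app g u v).trans (W.2.2 u hu v hv)⟩
  have hcomp : ∀ g h : U.UG n F q, W.1.map (g * h).1.toLinearMap
      = (W.1.map h.1.toLinearMap).map g.1.toLinearMap := fun g h => by
    rw [Subgroup.coe_mul, LinearEquiv.coe_toLinearMap_mul, Module.End.mul_eq_comp, Submodule.map_comp]
  have hkey : ∀ g h, f g = f h ↔ g⁻¹ * h ∈ ustab q W.1 := fun g h => by
    rw [mem_ustab_iff, hcomp, Subtype.ext_iff]
    constructor
    · intro e
      rw [← show W.1.map g.1.toLinearMap = W.1.map h.1.toLinearMap from e, ← hcomp, inv_mul_cancel]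
      exact Submodule.map_id W.1
    · intro e
      show W.1.map g.1.toLinearMap = W.1.map h.1.toLinearMap
      conv_lhs => rw [← e, ← hcomp, ← hcomp, mul_inv_cancel_left]
  let F' : U.UG n F q ⧸ ustab q W.1 → TISub n k F q := fun x => Quotient.liftOn' x f fun g h e =>
    (hkey g h).2 (QuotientGroup.leftRel_apply.1 e)
  have hbij : Function.Bijective F' := by
    constructor
    · intro x y
      induction x using QuotientGroup.induction_on with | H g =>
      induction y using QuotientGroup.induction_on with | H h =>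
      intro e
      exact QuotientGroup.eq.2 ((hkey g h).1 e)
    · intro W'
      obtain ⟨g, hg⟩ := UG_transitive_TISub hF W W'
      exact ⟨QuotientGroup.mk g, Subtype.ext hg⟩
  rw [← Nat.card_congr (Equiv.ofBijective F' hbij), mul_comm,
    ← Subgroup.card_eq_card_quotient_mul_card_subgroup]

theorem card_TISub_mul (k : ℕ) :
    Nat.card (TISub n k F q) * (∏ i : Fin k, ((q ^ 2) ^ k - (q ^ 2) ^ (i : ℕ))) =
      Nat.card (Frame n k F q) := by
  haveI : Finite F := hF.1
  haveI := Fintype.ofFinite F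
  haveI : Fintype (TISub n k F q) := Fintype.ofFinite _
  have aux : ∀ (W₁ W₂ : TISub n k F q) (s₁ : {s : Fin k → W₁.1 // LinearIndependent F s})
      (s₂ : {s : Fin k → W₂.1 // LinearIndependent F s}), W₁ = W₂ →
      (∀ i, (s₁.1 i : Fin n → F) = s₂.1 i) →
      (⟨W₁, s₁⟩ : Σ W : TISub n k F q, {s : Fin k → W.1 // LinearIndependent F s}) = ⟨W₂, s₂⟩ := by
    rintro W₁ _ s₁ s₂ rfl h
    rw [show s₁ = s₂ from Subtype.ext (funext fun i => Subtype.ext (h i))]
  let E : Frame n k F q ≃ Σ W : TISub n k F q, {s : Fin k → W.1 // LinearIndependent F s} :=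
    Equiv.ofBijective (fun f => ⟨⟨_, span_frame hF f⟩,
      fun i => ⟨f.1 i, Submodule.subset_span ⟨i, rfl⟩⟩,
      LinearIndependent.of_comp (Submodule.subtype _) f.2.1⟩)
    ⟨fun f g h => by
      have := congrArg (fun p : Σ W : TISub n k F q, {s : Fin k → W.1 // LinearIndependent F s} =>
        fun i => ((p.2.1 i : p.1.1) : Fin n → F)) h
      exact Subtype.ext this,
    fun p => by
      obtain ⟨⟨W, hr, hW⟩, s, hs⟩ := p
      have hli : LinearIndependent F fun i => (s i : Fin n → F) :=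
        hs.map' W.subtype W.ker_subtype
      refine ⟨⟨fun i => (s i : Fin n → F), hli, fun i j => hW _ (s i).2 _ (s j).2⟩, ?_⟩
      have hspan : Submodule.span F (Set.range fun i => (s i : Fin n → F)) = W := by
        refine Submodule.eq_of_le_of_finrank_eq (Submodule.span_le.2 ?_) ?_
        · rintro _ ⟨i, rfl⟩; exact (s i).2
        · rw [finrank_span_eq_card hli, Fintype.card_fin, hr]
      exact aux _ _ _ _ (Subtype.ext hspan) fun i => rfl⟩
  rw [Nat.card_congr E, Nat.card_sigma, Finset.sum_congr rfl (g := fun _ =>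
    ∏ i : Fin k, ((q ^ 2) ^ k - (q ^ 2) ^ (i : ℕ))) (fun W _ => ?_), Finset.sum_const,
    Finset.card_univ, Nat.card_eq_fintype_card, smul_eq_mul]
  rw [card_linearIndependent (by rw [W.2.1]), W.2.1, ← Nat.card_eq_fintype_card (α := F), hF.2]

/-- The order of the stabiliser of a totally isotropic subspace. -/
theorem card_ustab {k : ℕ} (hk : 2 * k ≤ n) (W : TISub n k F q) :
    Nat.card (ustab q W.1) = q ^ (k * (2 * n - 3 * k)) *
      (∏ i : Fin k, ((q ^ 2) ^ k - (q ^ 2) ^ (i : ℕ))) * Nat.card (U.UG (n - 2 * k) F q) := by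
  haveI : Finite F := hF.1
  have h := card_ustab_mul hF W
  rw [← card_frame_mul hF n k hk, ← card_TISub_mul hF k] at h
  haveI : Nonempty (TISub n k F q) := ⟨W⟩
  refine mul_right_cancel₀ (Nat.card_pos (α := TISub n k F q)).ne' (h.trans ?_)
  ring

theorem exists_hyperbolic {e : Fin n → F} (he0 : e ≠ 0) (he : U.herm q e e = 0) :
    ∃ f, U.IsUPair q e f := by
  obtain ⟨y, hy⟩ : ∃ y, U.herm q y e ≠ 0 := by
    by_contra h
    push Not at h
    exact he0 (hF.eq_zero_of_herm e fun v => herm_comm_zero hF (h v))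
  obtain ⟨y, hy⟩ : ∃ y, U.herm q y e = 1 :=
    ⟨(U.herm q y e)⁻¹ • y, by rw [U.herm_smul_left, inv_mul_cancel₀ hy]⟩
  obtain ⟨t, ht⟩ := hF.exists_trace (c := -U.herm q y y) (by rw [hF.neg_pow, hF.herm_symm])
  have hey : U.herm q e y = 1 := by rw [← hF.herm_symm, hy, one_pow]
  refine ⟨y + t • e, he, ?_, ?_⟩
  · simp only [U.herm_add_left, hF.herm_add_right, U.herm_smul_left, U.herm_smul_right, he, hy, hey]
    linear_combination ht
  · rw [hF.herm_add_right, U.herm_smul_right, he, hey, mul_zero, add_zero]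

theorem exists_ustab_det {W : Submodule F (Fin n → F)} (hn : 1 ≤ n)
    (hW : ∀ u ∈ W, ∀ v ∈ W, U.herm q u v = 0) {c : F} (hc : c ^ (q + 1) = 1) :
    ∃ g ∈ ustab q W, ((LinearEquiv.det g.1 : Fˣ) : F) = c := by
  haveI : Finite F := hF.1
  by_cases hW0 : W = ⊥
  · obtain ⟨g, hg⟩ := U.exists_det_eq hF hn hc
    refine ⟨g, fun v => ?_, hg⟩
    rw [hW0, Submodule.mem_bot, Submodule.mem_bot, LinearEquiv.map_eq_zero_iff]
  obtain ⟨e, he, he0⟩ := Submodule.exists_mem_ne_zero_of_ne_bot hW0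
  obtain ⟨f, hp⟩ := exists_hyperbolic hF he0 (hW e he e he)
  have hfe : U.herm q f e = 1 := (hp.symm hF).2.2
  -- a scalar `l` with `l ^ (1 - q) = c`
  have hc0 : c ≠ 0 := by rintro rfl; rw [zero_pow (Nat.succ_ne_zero q)] at hc; exact zero_ne_one hc
  obtain ⟨l, hl, hlc⟩ : ∃ l : F, l ≠ 0 ∧ l * ((l ^ q)⁻¹) = c := by
    by_cases hcm : c = -1
    · obtain ⟨d, hd, hdq⟩ := hF.exists_skew
      exact ⟨d, hd, by rw [hdq, hcm, inv_neg, mul_neg, mul_inv_cancel₀ hd]⟩
    · have h1 : c + 1 ≠ 0 := fun h => hcm (eq_neg_of_add_eq_zero_left h)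
      have h2 : c ^ q = c⁻¹ := eq_inv_of_mul_eq_one_left (by rw [← pow_succ]; exact hc)
      refine ⟨c + 1, h1, ?_⟩
      rw [hF.add_pow, one_pow, h2]
      have h3 : c⁻¹ + 1 ≠ 0 := by
        intro h; apply h1; field_simp at h; linear_combination h
      rw [show c⁻¹ + 1 = c⁻¹ * (c + 1) by field_simp; ring, mul_inv, inv_inv, mul_left_comm,
        mul_inv_cancel₀ h1, mul_one]
  have hlq : l ^ q ≠ 0 := pow_ne_zero _ hl
  let φ : (Fin n → F) →ₗ[F] F := (l - 1) • hermB hF f
  let ψ : (Fin n → F) →ₗ[F] F := ((l ^ q)⁻¹ - 1) • hermB hF e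
  let T := (LinearMap.transvection ψ f) ∘ₗ (LinearMap.transvection φ e)
  have hT : ∀ w, T w = w + ((l - 1) * U.herm q w f) • e + (((l ^ q)⁻¹ - 1) * U.herm q w e) • f := by
    intro w
    simp only [T, φ, ψ, LinearMap.comp_apply, LinearMap.transvection.apply, LinearMap.smul_apply,
      smul_eq_mul, hermB_apply, U.herm_add_left, U.herm_smul_left, hp.1, mul_zero, add_zero]
  have hiso : ∀ u v, U.herm q (T u) (T v) = U.herm q u v := by
    intro u v
    simp only [hT, U.herm_add_left, hF.herm_add_right, U.herm_smul_left, U.herm_smul_right, mul_pow,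
      hF.sub_pow, one_pow, inv_pow, hF.pow_pow, hF.herm_symm, hp.1, hp.2.1, hp.2.2, hfe]
    field_simp
    ring
  let g : U.UG n F q := ⟨LinearEquiv.ofInjectiveEndo T (fun u v huv => sub_eq_zero.1
    (hF.eq_zero_of_herm _ fun w => by
      rw [U.herm_sub_left, ← hiso u w, ← hiso v w, huv, sub_self])), hiso⟩
  refine ⟨g, mem_ustab_iff.2 (Submodule.eq_of_le_of_finrank_eq ?_ (LinearEquiv.finrank_map_eq g.1 W)), ?_⟩
  · rintro _ ⟨w, hw, rfl⟩
    show T w ∈ W
    rw [hT, hW w hw e he, mul_zero, zero_smul, add_zero]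
    exact W.add_mem hw (W.smul_mem _ he)
  · show (LinearEquiv.det g.1 : Fˣ).1 = c
    rw [LinearEquiv.coe_det]
    show LinearMap.det T = c
    rw [show T = (LinearMap.transvection ψ f) ∘ₗ (LinearMap.transvection φ e) from rfl,
      LinearMap.det_comp, LinearMap.transvection.det, LinearMap.transvection.det, ← hlc]
    simp [φ, ψ, hermB_apply, hp.2.2, hfe]
    ring

theorem card_ustab_inf_SUG {k : ℕ} (hn : 1 ≤ n) (W : TISub n k F q) :
    (q + 1) * Nat.card ↥(ustab q W.1 ⊓ U.SUG n F q) = Nat.card (ustab q W.1) := by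
  haveI : Finite F := hF.1
  let δ : ustab q W.1 →* Fˣ := (LinearEquiv.det.comp (U.UG n F q).subtype).comp (ustab q W.1).subtype
  have hker : Nat.card δ.ker = Nat.card ↥(ustab q W.1 ⊓ U.SUG n F q) :=
    Nat.card_congr
      { toFun := fun g => ⟨g.1.1, g.1.2, g.2⟩
        invFun := fun g => ⟨⟨g.1, g.2.1⟩, g.2.2⟩
        left_inv := fun _ => rfl
        right_inv := fun _ => rfl }
  rw [← Subgroup.index_mul_card δ.ker, hker, Subgroup.index_ker]
  congr 1
  refine Eq.symm (Eq.trans (Nat.card_congr (β := {x : F // x ^ (q + 1) = 1})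
    (Equiv.ofBijective (fun u : δ.range => ⟨((u : Fˣ) : F), ?_⟩) ⟨?_, ?_⟩)) hF.card_norm_one)
  · obtain ⟨g, hg⟩ := u.2
    rw [← hg]
    exact U.det_norm_one hF g.1
  · intro a b h
    exact Subtype.ext (Units.ext (congrArg Subtype.val h))
  · intro x
    obtain ⟨g, hgW, hg⟩ := exists_ustab_det hF hn W.2.2 x.2
    exact ⟨⟨δ ⟨g, hgW⟩, ⟨g, hgW⟩, rfl⟩, Subtype.ext hg⟩

omit hF in
/-- The Prelude's stabiliser inside `GU`. -/
theorem map_stabilizing_GU (W : Submodule F (Fin n → F)) (g : Cfsg.GU n F q) :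
    g ∈ (Cfsg.stabilizing (Cfsg.glToMat (Fin n) F) (W : Set (Fin n → F))).subgroupOf (Cfsg.GU n F q)
      ↔ U.guEquiv n F q g ∈ ustab q W := Iff.rfl

omit hF in
/-- The Prelude's stabiliser inside `SU`. -/
theorem card_stabilizing_SU (W : Submodule F (Fin n → F)) :
    Nat.card ↥((Cfsg.stabilizing (Cfsg.slToMat n F) (W : Set (Fin n → F))).subgroupOf (Cfsg.SU n F q))
      = Nat.card ↥(ustab q W ⊓ U.SUG n F q) :=
  Nat.card_congr <| ((U.suEquiv n F q).toEquiv.subtypeEquiv (q := fun g => g.1 ∈ ustab q W)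
      fun _ => Iff.rfl).trans
    { toFun := fun g => ⟨g.1.1, g.2, g.1.2⟩
      invFun := fun g => ⟨⟨g.1, g.2.2⟩, g.2.1⟩
      left_inv := fun _ => rfl
      right_inv := fun _ => rfl }

end Cfsg.Agent.Forms
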