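import Cfsg.Agent.Forms.UnitaryStab

/-!
The stabiliser of a non-degenerate subspace in the unitary group is a direct product.
-/

set_option autoImplicit false

namespace Cfsg.Agent.Forms

open Cfsg.Agent.Classical Module

universe u

variable {F : Type u} [Field F] {n k q : ℕ}

theorem exists_equiv_ustab (hF : U.SqField F q) (hk : k ≤ n) (W : Submodule F (Fin n → F))
    (hWk : finrank F W = k) (hW : ∀ u ∈ W, (∀ v ∈ W, U.herm q u v = 0) → u = 0) :
    Nonempty (ustab q W ≃* U.UG k F q × U.UG (n - k) F q) := by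
  haveI : Finite F := hF.1
  set W' := hperp q W
  obtain ⟨a, ha⟩ := exists_model hF W hW hWk
  have hW'dim : finrank F W' = n - k := by rw [finrank_hperp hF, hWk]
  have hbot : W ⊓ W' = ⊥ := by
    rw [eq_bot_iff]
    exact fun v hv => hW v hv.1 fun w hw => hv.2 w hw
  have htop : W ⊔ W' = ⊤ := by
    refine Submodule.eq_top_of_finrank_eq ?_
    have := Submodule.finrank_sup_add_finrank_inf_eq W W'
    rw [hbot, finrank_bot, hWk, hW'dim] at this
    rw [Module.finrank_fin_fun]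
    omega
  have hW' : ∀ x ∈ W', (∀ y ∈ W', U.herm q x y = 0) → x = 0 := by
    intro x hx h
    refine hF.eq_zero_of_herm x fun v => ?_
    have hv : v ∈ W ⊔ W' := htop ▸ Submodule.mem_top
    obtain ⟨w, hw, y, hy, rfl⟩ := Submodule.mem_sup.1 hv
    rw [hF.herm_add_right, hx w hw, h y hy, add_zero]
  obtain ⟨b, hb⟩ := exists_model hF W' hW' hW'dim
  have hc : IsCompl W W' := ⟨disjoint_iff.2 hbot, codisjoint_iff.2 htop⟩
  obtain ⟨E, hE⟩ : ∃ E : ((Fin k → F) × (Fin (n - k) → F)) ≃ₗ[F] (Fin n → F),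
      ∀ p, E p = (a p.1 : Fin n → F) + (b p.2 : Fin n → F) :=
    ⟨(a.prodCongr b).trans (Submodule.prodEquivOfIsCompl W W' hc), fun p => rfl⟩
  have hEh : ∀ p p', U.herm q (E p) (E p') = U.herm q p.1 p'.1 + U.herm q p.2 p'.2 := by
    intro p p'
    rw [hE, hE, U.herm_add_left, hF.herm_add_right, hF.herm_add_right, ha, hb,
      (b p.2).2 _ (a p'.1).2, herm_comm_zero hF ((b p'.2).2 _ (a p.1).2), add_zero, zero_add]
  have hWmem : ∀ p, E p ∈ W ↔ p.2 = 0 := fun p => by
    rw [hE]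
    constructor
    · intro h
      have h' : (b p.2 : Fin n → F) ∈ W ⊓ W' :=
        ⟨by simpa using W.sub_mem h (a p.1).2, (b p.2).2⟩
      rw [hbot, Submodule.mem_bot] at h'
      exact b.map_eq_zero_iff.1 (Subtype.ext h')
    · intro h; simp [h, (a p.1).2]
  let f : U.UG k F q × U.UG (n - k) F q → ((Fin n → F) ≃ₗ[F] (Fin n → F)) := fun x =>
    (E.symm.trans (x.1.1.prodCongr x.2.1)).trans E
  have hf : ∀ x p, f x (E p) = E (x.1.1 p.1, x.2.1 p.2) := fun x p => by
    simp only [f, LinearEquiv.trans_apply, LinearEquiv.symm_apply_apply, LinearEquiv.prodCongr_apply]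
  have hfU : ∀ x, f x ∈ U.UG n F q := fun x u v => by
    obtain ⟨p, rfl⟩ := E.surjective u
    obtain ⟨p', rfl⟩ := E.surjective v
    rw [hf, hf, hEh, hEh, U.UG_app, U.UG_app]
  have hfS : ∀ x, (⟨f x, hfU x⟩ : U.UG n F q) ∈ ustab q W := fun x v => by
    obtain ⟨p, rfl⟩ := E.surjective v
    show E p ∈ W ↔ f x (E p) ∈ W
    rw [hf, hWmem, hWmem, LinearEquiv.map_eq_zero_iff]
  have hfm : ∀ x y v, f (x * y) v = f x (f y v) := fun x y v => by
    obtain ⟨p, rfl⟩ := E.surjective v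
    rw [hf, hf, hf]
    rfl
  let ρ : U.UG k F q × U.UG (n - k) F q →* ustab q W :=
    MonoidHom.mk' (fun x => ⟨⟨f x, hfU x⟩, hfS x⟩) fun x y =>
      Subtype.ext (Subtype.ext (LinearEquiv.ext (hfm x y)))
  have hρ : ∀ x p, (ρ x).1.1 (E p) = E (x.1.1 p.1, x.2.1 p.2) := hf
  refine ⟨(MulEquiv.ofBijective ρ ⟨?_, ?_⟩).symm⟩
  · intro x y hxy
    have h : ∀ p : (Fin k → F) × (Fin (n - k) → F), E (x.1.1 p.1, x.2.1 p.2) = E (y.1.1 p.1, y.2.1 p.2) := fun p => by
      rw [← hρ, ← hρ, hxy]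
    refine Prod.ext (Subtype.ext (LinearEquiv.ext fun u => ?_)) (Subtype.ext (LinearEquiv.ext fun u => ?_))
    · exact congrArg Prod.fst (E.injective (h (u, 0)))
    · exact congrArg Prod.snd (E.injective (h (0, u)))
  · intro g
    -- the coordinates of `g`
    let G : ((Fin k → F) × (Fin (n - k) → F)) ≃ₗ[F] ((Fin k → F) × (Fin (n - k) → F)) :=
      (E.trans g.1.1).trans E.symm
    have hG : ∀ p, E (G p) = g.1.1 (E p) := fun p => E.apply_symm_apply _
    have h1 : ∀ p, (G p).2 = 0 ↔ p.2 = 0 := fun p => by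
      rw [← hWmem, ← hWmem, hG]; exact (g.2 _).symm
    have hGh : ∀ p p', U.herm q (G p).1 (G p').1 + U.herm q (G p).2 (G p').2
        = U.herm q p.1 p'.1 + U.herm q p.2 p'.2 := fun p p' => by
      rw [← hEh, ← hEh, hG, hG, U.UG_app]
    have h2 : ∀ u, (G (0, u)).1 = 0 := by
      intro u
      refine hF.eq_zero_of_herm _ fun x => ?_
      obtain ⟨p, hp⟩ := G.surjective (x, 0)
      have hp2 : p.2 = 0 := (h1 p).1 (by rw [hp])
      have := hGh (0, u) p
      rw [hp, hp2] at this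
      simpa [hF.herm_zero_right] using this
    let A : (Fin k → F) →ₗ[F] (Fin k → F) :=
      (LinearMap.fst F _ _) ∘ₗ G.toLinearMap ∘ₗ (LinearMap.inl F _ _)
    let B : (Fin (n - k) → F) →ₗ[F] (Fin (n - k) → F) :=
      (LinearMap.snd F _ _) ∘ₗ G.toLinearMap ∘ₗ (LinearMap.inr F _ _)
    have hA : ∀ u v, U.herm q (A u) (A v) = U.herm q u v := fun u v => by
      have := hGh (u, 0) (v, 0)
      rw [(h1 (u, 0)).2 rfl, (h1 (v, 0)).2 rfl] at this
      simpa [A] using this
    have hB : ∀ u v, U.herm q (B u) (B v) = U.herm q u v := fun u v => by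
      have := hGh (0, u) (0, v)
      rw [h2, h2] at this
      simpa [B] using this
    let A' : U.UG k F q := ⟨LinearEquiv.ofInjectiveEndo A (fun u v huv => sub_eq_zero.1
      (hF.eq_zero_of_herm _ fun w => by
        rw [U.herm_sub_left, ← hA u w, ← hA v w, huv, sub_self])), hA⟩
    let B' : U.UG (n - k) F q := ⟨LinearEquiv.ofInjectiveEndo B (fun u v huv => sub_eq_zero.1
      (hF.eq_zero_of_herm _ fun w => by
        rw [U.herm_sub_left, ← hB u w, ← hB v w, huv, sub_self])), hB⟩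
    refine ⟨(A', B'), Subtype.ext (Subtype.ext (LinearEquiv.ext fun v => ?_))⟩
    obtain ⟨p, rfl⟩ := E.surjective v
    rw [hρ, ← hG]
    congr 1
    have hsplit : G p = G (p.1, 0) + G (0, p.2) := by rw [← map_add]; simp
    show (A p.1, B p.2) = G p
    rw [hsplit]
    refine Prod.ext ?_ ?_
    · simp [A, h2]
    · simp [B, (h1 (p.1, 0)).2 rfl]

end Cfsg.Agent.Forms
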