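import Cfsg.Agent.SympSub.Iso

/-!
The symmetric group on an even number of letters inside a symplectic group over two elements.
-/

set_option autoImplicit false

namespace Cfsg.Agent.Forms

open Module

variable (m : ℕ)

local notation "Vp" => Fin (m + 1) → ZMod 2

/-- Even vectors vanishing on the last coordinate. -/
def evenSub : Submodule (ZMod 2) Vp where
  carrier := {x | ∑ i, x i = 0 ∧ x (Fin.last m) = 0}
  zero_mem' := by simp
  add_mem' {a b} ha hb := by
    refine ⟨?_, by simp [ha.2, hb.2]⟩
    simp [Finset.sum_add_distrib, ha.1, hb.1]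
  smul_mem' c a ha := by
    refine ⟨?_, by simp [ha.2]⟩
    simp [← Finset.mul_sum, ha.1]

theorem mem_evenSub {x : Vp} : x ∈ evenSub m ↔ ∑ i, x i = 0 ∧ x (Fin.last m) = 0 := Iff.rfl

/-- Permute the coordinates and restore the last coordinate. -/
def permProj (σ : Equiv.Perm (Fin (m + 1))) (x : Vp) : Vp :=
  fun i => x (σ.symm i) - x (σ.symm (Fin.last m))

variable {m}

theorem permProj_mem (hm : Odd m) (σ : Equiv.Perm (Fin (m + 1))) {x : Vp} (hx : x ∈ evenSub m) :
    permProj m σ x ∈ evenSub m := by
  refine ⟨?_, sub_self _⟩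
  unfold permProj
  rw [Finset.sum_sub_distrib, Equiv.sum_comp σ.symm x, hx.1, Finset.sum_const, Finset.card_univ,
    Fintype.card_fin, nsmul_eq_mul]
  have : ((m + 1 : ℕ) : ZMod 2) = 0 := by
    rw [ZMod.natCast_eq_zero_iff_even]; exact hm.add_one
  rw [this, zero_mul, sub_zero]

theorem permProj_mul (σ τ : Equiv.Perm (Fin (m + 1))) (x : Vp) :
    permProj m (σ * τ) x = permProj m σ (permProj m τ x) := by
  funext i
  simp only [permProj, Equiv.Perm.mul_def, Equiv.symm_trans_apply]
  abel

theorem permProj_one {x : Vp} (hx : x ∈ evenSub m) : permProj m 1 x = x := by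
  funext i
  simp [permProj, Equiv.Perm.one_def, hx.2]

/-- The action on the even vectors, as linear equivalences. -/
def evenPerm (hm : Odd m) : Equiv.Perm (Fin (m + 1)) →* (evenSub m ≃ₗ[ZMod 2] evenSub m) where
  toFun σ :=
    { toFun := fun x => ⟨permProj m σ x, permProj_mem hm σ x.2⟩
      invFun := fun x => ⟨permProj m σ⁻¹ x, permProj_mem hm σ⁻¹ x.2⟩
      map_add' := fun a b => Subtype.ext (funext fun i => by simp [permProj]; abel)
      map_smul' := fun c a => Subtype.ext (funext fun i => by simp [permProj, mul_sub])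
      left_inv := fun x => Subtype.ext (by
        show permProj m σ⁻¹ (permProj m σ x) = x
        rw [← permProj_mul, inv_mul_cancel, permProj_one x.2])
      right_inv := fun x => Subtype.ext (by
        show permProj m σ (permProj m σ⁻¹ x) = x
        rw [← permProj_mul, mul_inv_cancel, permProj_one x.2]) }
  map_one' := LinearEquiv.ext fun x => Subtype.ext (permProj_one x.2)
  map_mul' σ τ := LinearEquiv.ext fun x => Subtype.ext (permProj_mul σ τ _)

/-- The dot product on the even vectors. -/
def dotBil : LinearMap.BilinForm (ZMod 2) (evenSub m) :=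
  LinearMap.mk₂ (ZMod 2) (fun x y => ∑ i, (x : Vp) i * (y : Vp) i)
    (fun a b c => by simp [add_mul, Finset.sum_add_distrib])
    (fun c a b => by simp [Finset.mul_sum, mul_assoc])
    (fun a b c => by simp [mul_add, Finset.sum_add_distrib])
    (fun c a b => by simp [Finset.mul_sum, mul_left_comm])

theorem dotBil_apply (x y : evenSub m) : dotBil x y = ∑ i, (x : Vp) i * (y : Vp) i := rfl

theorem evenPerm_isometry (hm : Odd m) (σ : Equiv.Perm (Fin (m + 1))) (x y : evenSub m) :
    dotBil (evenPerm hm σ x) (evenPerm hm σ y) = dotBil x y := by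
  have hsum : ∀ z : evenSub m, ∑ i, (z : Vp) (σ.symm i) = 0 := fun z => by
    rw [Equiv.sum_comp σ.symm]; exact z.2.1
  have h2 : ((m + 1 : ℕ) : ZMod 2) = 0 := by
    rw [ZMod.natCast_eq_zero_iff_even]; exact hm.add_one
  simp only [dotBil_apply]
  show ∑ i, permProj m σ (x : Vp) i * permProj m σ (y : Vp) i = _
  simp only [permProj, sub_mul, mul_sub, Finset.sum_sub_distrib, ← Finset.sum_mul, ← Finset.mul_sum,
    hsum, Finset.sum_const, Finset.card_univ, Fintype.card_fin, nsmul_eq_mul, h2]
  simp only [zero_mul, mul_zero, sub_zero]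
  exact Equiv.sum_comp σ.symm fun i => (x : Vp) i * (y : Vp) i

theorem dotBil_isAlt : (dotBil : LinearMap.BilinForm (ZMod 2) (evenSub m)).IsAlt := by
  intro x
  rw [dotBil_apply]
  refine Eq.trans (Finset.sum_congr rfl fun i _ => ?_) x.2.1
  generalize (x : Vp) i = a
  revert a; decide

/-- The sum of two unit vectors, away from the last coordinate. -/
def pairVec (a b : Fin (m + 1)) (ha : a ≠ Fin.last m) (hb : b ≠ Fin.last m) : evenSub m :=
  ⟨Pi.single a 1 + Pi.single b 1, by
    refine ⟨?_, by simp [ha.symm, hb.symm]⟩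
    simp [Finset.sum_add_distrib]
    decide⟩

theorem dotBil_nondegenerate (hm : Odd m) (h2 : 2 ≤ m) :
    (dotBil : LinearMap.BilinForm (ZMod 2) (evenSub m)).Nondegenerate := by
  suffices hL : ∀ x : evenSub m, (∀ y, dotBil x y = 0) → x = 0 from
    ⟨hL, fun y hy => hL y fun z => dotBil_isAlt.isRefl _ _ (hy z)⟩
  intro x hx
  have h0 : (0 : Fin (m + 1)) ≠ Fin.last m := by
    intro h; have := congrArg Fin.val h; simp at this; omega
  have hall : ∀ i, i ≠ Fin.last m → (x : Vp) i = (x : Vp) 0 := by
    intro i hi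
    have h := hx (pairVec i 0 hi h0)
    simp [dotBil_apply, pairVec, mul_add, Finset.sum_add_distrib, Pi.single_apply] at h
    exact (CharTwo.add_eq_zero.1 h)
  have hc : (x : Vp) 0 = 0 := by
    have h := x.2.1
    rw [Fin.sum_univ_castSucc, x.2.2, add_zero,
      Finset.sum_congr rfl (fun i _ => hall _ (Fin.castSucc_ne_last i)), Finset.sum_const,
      Finset.card_univ, Fintype.card_fin, nsmul_eq_mul] at h
    rwa [(ZMod.natCast_eq_one_iff_odd (n := m)).2 hm, one_mul] at h
  refine Subtype.ext (funext fun i => ?_)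
  by_cases hi : i = Fin.last m
  · rw [hi]; exact x.2.2
  · rw [hall i hi, hc]; rfl

theorem finrank_evenSub (h1 : 1 ≤ m) : finrank (ZMod 2) (evenSub m) = m - 1 := by
  let φ : Vp →ₗ[ZMod 2] ZMod 2 × ZMod 2 :=
    LinearMap.prod (∑ i, LinearMap.proj i) (LinearMap.proj (Fin.last m))
  have hk : evenSub m = LinearMap.ker φ := by
    ext x
    simp [φ, mem_evenSub]
  have h0 : (0 : Fin (m + 1)) ≠ Fin.last m := by
    intro h; have := congrArg Fin.val h; simp at this; omega
  have hr : LinearMap.range φ = ⊤ := LinearMap.range_eq_top.2 fun c =>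
    ⟨Pi.single 0 (c.1 - c.2) + Pi.single (Fin.last m) c.2, by
      ext <;> simp [φ, Finset.sum_add_distrib, h0.symm]⟩
  have := LinearMap.finrank_range_add_finrank_ker φ
  rw [hr, finrank_top, finrank_prod, finrank_self, finrank_fin_fun] at this
  rw [hk]; omega

theorem evenPerm_injective (hm : Odd m) (h5 : 4 ≤ m) : Function.Injective (evenPerm hm) := by
  rw [injective_iff_map_eq_one]
  intro σ hσ
  have key : ∀ a b : Fin (m + 1), a ≠ Fin.last m → b ≠ Fin.last m → a ≠ b → σ a = a ∨ σ a = b := by
    intro a b ha hb hab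
    have h := congrArg Subtype.val (LinearEquiv.congr_fun hσ (pairVec a b ha hb))
    replace h : ∀ i, permProj m σ (Pi.single a 1 + Pi.single b 1) i
        = (Pi.single a 1 + Pi.single b 1 : Vp) i := congrFun h
    set c : ZMod 2 := (Pi.single a 1 + Pi.single b 1 : Vp) (σ.symm (Fin.last m)) with hc
    obtain ⟨x, hx⟩ : ∃ x, x ∉ ({σ a, σ b, a, b} : Finset (Fin (m + 1))) := by
      by_contra hcon
      push Not at hcon
      have : (Finset.univ : Finset (Fin (m + 1))) ⊆ {σ a, σ b, a, b} := fun i _ => hcon i
      have h' := (Finset.card_le_card this).trans Finset.card_le_four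
      simp at h'; omega
    simp only [Finset.mem_insert, Finset.mem_singleton, not_or] at hx
    have hxs : σ.symm x ≠ a ∧ σ.symm x ≠ b :=
      ⟨fun e => hx.1 (by rw [← e, σ.apply_symm_apply]), fun e => hx.2.1 (by rw [← e, σ.apply_symm_apply])⟩
    have hc0 : c = 0 := by
      have := h x
      simp only [permProj, ← hc] at this
      simpa [hx.2.2.1, hx.2.2.2, hxs.1, hxs.2] using this
    have := h (σ a)
    simp only [permProj, ← hc, hc0, sub_zero, σ.symm_apply_apply] at this
    by_contra hcon
    push Not at hcon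
    simp [hcon.1, hcon.2, hab] at this
  have hfix : ∀ a, a ≠ Fin.last m → σ a = a := by
    intro a ha
    obtain ⟨b, hb, c, hc, hbc⟩ : ∃ b, b ∈ (Finset.univ \ {a, Fin.last m}) ∧
        ∃ c, c ∈ (Finset.univ \ {a, Fin.last m}) ∧ b ≠ c := by
      have : 1 < (Finset.univ \ {a, Fin.last m}).card := by
        rw [Finset.card_sdiff_of_subset (Finset.subset_univ _), Finset.card_pair ha]
        simp; omega
      obtain ⟨b, hb, c, hc, h⟩ := Finset.one_lt_card.1 this
      exact ⟨b, hb, c, hc, h⟩
    simp at hb hc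
    rcases key a b ha hb.2 (Ne.symm hb.1) with h | h
    · exact h
    · rcases key a c ha hc.2 (Ne.symm hc.1) with h' | h'
      · exact h'
      · exact absurd (h.symm.trans h') hbc
  refine Equiv.ext fun a => ?_
  by_cases ha : a = Fin.last m
  · subst ha
    by_contra hcon
    have hne : σ (Fin.last m) ≠ Fin.last m := hcon
    exact hne (σ.injective (hfix _ hne))
  · exact hfix a ha

/-- Symmetric groups of even degree at least six embed into symplectic groups over two elements. -/
theorem exists_perm_hom_symplectic (k : ℕ) (hk : 2 ≤ k) :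
    ∃ f : Equiv.Perm (Fin (2 * k + 1 + 1)) →* Matrix.symplecticGroup (Fin k) (ZMod 2),
      Function.Injective f := by
  have hm : Odd (2 * k + 1) := odd_two_mul_add_one k
  obtain ⟨e, he⟩ := SympSub.exists_iso_sympBil (dotBil_isAlt (m := 2 * k + 1))
    (dotBil_nondegenerate hm (by omega)) (k := k) (by rw [finrank_evenSub (by omega)]; omega)
  let f0 : Equiv.Perm (Fin (2 * k + 1 + 1)) →* ↥(SympSub.isoGroup (dotBil (m := 2 * k + 1))) :=
    (evenPerm hm).codRestrict _ fun σ => evenPerm_isometry hm σ
  refine ⟨((SympSub.spEquiv k (ZMod 2)).symm.toMonoidHom.comp (SympSub.isoCongr e he).toMonoidHom).comp f0,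
    ((SympSub.spEquiv k (ZMod 2)).symm.injective.comp (SympSub.isoCongr e he).injective).comp ?_⟩
  intro a b h
  exact evenPerm_injective hm (by omega) (congrArg Subtype.val h)

end Cfsg.Agent.Forms
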