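import Cfsg.Agent.Forms.FiniteQuadratic
import Cfsg.Agent.Classical.OrthForms
import Cfsg.Agent.S0289

/-!
The quadratic forms over `ZMod 2` polarising to a fixed non-singular alternating form.
-/

set_option autoImplicit false

namespace Cfsg.Agent.Forms

open QuadraticMap (polar polarBilin)

variable {m : ℕ}

/-- The polar of the plus form, as a function. -/
abbrev f2Pol (m : ℕ) (u v : Fin m ⊕ Fin m → ZMod 2) : ZMod 2 :=
  Cfsg.quadFormPlus m (ZMod 2) (u + v) - Cfsg.quadFormPlus m (ZMod 2) u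
    - Cfsg.quadFormPlus m (ZMod 2) v

theorem f2Pol_eq_polar (u v : Fin m ⊕ Fin m → ZMod 2) :
    f2Pol m u v = polar (Classical.plusQF m (ZMod 2)) u v := by
  simp [f2Pol, QuadraticMap.polar, Classical.plusQF_apply]

theorem f2_sq (x : ZMod 2) : x * x = x := by revert x; decide

theorem f2Pol_nondeg {u : Fin m ⊕ Fin m → ZMod 2} (h : ∀ v, f2Pol m u v = 0) : u = 0 := by
  funext j
  have hp : ∀ u v : Fin m ⊕ Fin m → ZMod 2,
      f2Pol m u v = ∑ i, (u (.inl i) * v (.inr i) + v (.inl i) * u (.inr i)) := fun u v => by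
    simp only [f2Pol, Cfsg.quadFormPlus, Pi.add_apply, add_mul, mul_add, Finset.sum_add_distrib]
    ring
  rcases j with i | i
  · simpa [hp, Pi.single_apply] using h (Pi.single (.inr i) 1)
  · simpa [hp, Pi.single_apply] using h (Pi.single (.inl i) 1)

/-- `q₀ + f(·, w)` as a quadratic form. -/
theorem exists_twist (w : Fin m ⊕ Fin m → ZMod 2) :
    ∃ Q : QuadraticForm (ZMod 2) (Fin m ⊕ Fin m → ZMod 2),
      ∀ v, Q v = Cfsg.quadFormPlus m (ZMod 2) v + f2Pol m v w := by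
  refine ⟨Classical.plusQF m (ZMod 2) + QuadraticMap.linMulLin
    ((polarBilin (Classical.plusQF m (ZMod 2))).flip w)
    ((polarBilin (Classical.plusQF m (ZMod 2))).flip w), fun v => ?_⟩
  rw [QuadraticMap.add_apply, QuadraticMap.linMulLin_apply, LinearMap.flip_apply,
    QuadraticMap.polarBilin_apply_apply, f2_sq, Classical.plusQF_apply, f2Pol_eq_polar]

/-- `q + f(·, w) ≅ q` when `q w = 0`. -/
theorem exists_equiv_twist {q : (Fin m ⊕ Fin m → ZMod 2) → ZMod 2}
    (hq : ∀ u v, q (u + v) = q u + q v + f2Pol m u v) {w : Fin m ⊕ Fin m → ZMod 2}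
    (hw : q w = 0) :
    ∃ g : (Fin m ⊕ Fin m → ZMod 2) ≃ₗ[ZMod 2] (Fin m ⊕ Fin m → ZMod 2),
      ∀ v, q v + f2Pol m v w = q (g v) := by
  let L := (polarBilin (Classical.plusQF m (ZMod 2))).flip w
  have hL : ∀ v, L v = f2Pol m v w := fun v => (f2Pol_eq_polar v w).symm
  have hww : L w = 0 := by
    rw [hL, f2Pol_eq_polar, polar_self_eq]
    exact mul_eq_zero_of_left CharTwo.two_eq_zero _
  let T : (Fin m ⊕ Fin m → ZMod 2) →ₗ[ZMod 2] (Fin m ⊕ Fin m → ZMod 2) :=
    LinearMap.id + L.smulRight w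
  have hT : ∀ v, T v = v + L v • w := fun v => rfl
  have hinv : Function.Involutive T := fun v => by
    rw [hT, hT, map_add, map_smul, hww, smul_zero, add_zero, add_assoc, ← add_smul,
      CharTwo.add_self_eq_zero, zero_smul, add_zero]
  refine ⟨LinearEquiv.ofInvolutive T hinv, fun v => ?_⟩
  have hq0 : q 0 = 0 := by
    have := hq 0 0
    simp [f2Pol, Cfsg.quadFormPlus] at this
    exact this
  show q v + f2Pol m v w = q (T v)
  rw [hT, hL]
  rcases (show ∀ x : ZMod 2, x = 0 ∨ x = 1 by decide) (f2Pol m v w) with h | h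
  · simp [h]
  · rw [h, one_smul, hq, hw, h, add_zero]

/-- A twist by `w` with `q w ≠ 0` has a different number of zeros. -/
theorem not_equiv_twist {q : (Fin m ⊕ Fin m → ZMod 2) → ZMod 2}
    (hq : ∀ u v, q (u + v) = q u + q v + f2Pol m u v) {w : Fin m ⊕ Fin m → ZMod 2}
    (hw : q w ≠ 0) (hne : 2 * Nat.card {v // q v = 0} ≠ 2 ^ (2 * m))
    (g : (Fin m ⊕ Fin m → ZMod 2) ≃ₗ[ZMod 2] (Fin m ⊕ Fin m → ZMod 2)) :
    ¬ ∀ v, q v + f2Pol m v w = q (g v) := by
  intro hg
  classical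
  apply hne
  have h01 : ∀ x : ZMod 2, x ≠ 0 → x = 1 := by decide
  have e1 : {v // q v = 0} ≃ {v // q v + f2Pol m v w = 0} :=
    (g.toEquiv.subtypeEquiv fun v => by rw [hg]; rfl).symm
  have e2 : {v // q v + f2Pol m v w = 0} ≃ {v // ¬ q v = 0} :=
    (Equiv.addRight w).subtypeEquiv fun v => by
      rw [Equiv.coe_addRight, hq, h01 _ hw]
      generalize q v = a, f2Pol m v w = b
      revert a b; decide
  have h1 := Nat.card_congr (e1.trans e2)
  have h2 : Nat.card {v // q v = 0} + Nat.card {v // ¬ q v = 0} = 2 ^ (2 * m) := by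
    rw [← Nat.card_sum, Nat.card_congr (Equiv.sumCompl _)]
    simp [two_mul]
  omega

/-- Zeros of the plus form over `ZMod 2`. -/
theorem card_zeros_plus_f2 (hm : 1 ≤ m) :
    Nat.card {v : Fin m ⊕ Fin m → ZMod 2 // Cfsg.quadFormPlus m (ZMod 2) v = 0} =
      2 ^ (2 * m - 1) + 2 ^ (m - 1) := by
  rw [S0289.result (F := ZMod 2) (q := 2) (ZMod.card 2) m hm]
  obtain ⟨k, rfl⟩ : ∃ k, m = k + 1 := ⟨m - 1, by omega⟩
  rw [show 2 * (k + 1) - 1 = 2 * k + 1 by omega, Nat.add_sub_cancel, pow_succ 2 k]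
  have := Nat.one_le_two_pow (n := 2 * k + 1)
  omega

theorem card_zeros_plus_f2_ne (hm : 1 ≤ m) :
    2 * Nat.card {v : Fin m ⊕ Fin m → ZMod 2 // Cfsg.quadFormPlus m (ZMod 2) v = 0} ≠
      2 ^ (2 * m) := by
  rw [card_zeros_plus_f2 hm]
  obtain ⟨k, rfl⟩ : ∃ k, m = k + 1 := ⟨m - 1, by omega⟩
  simp only [show 2 * (k + 1) = 2 * k + 2 by ring, Nat.add_sub_cancel,
    show 2 * k + 2 - 1 = 2 * k + 1 by omega, pow_succ]
  have := Nat.one_le_two_pow (n := k)
  omega

/-- Type of the twist of the plus form. -/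
theorem twist_cases (hm : 1 ≤ m) (w : Fin m ⊕ Fin m → ZMod 2) :
    (Cfsg.quadFormPlus m (ZMod 2) w = 0 ∧
      ∃ g : (Fin m ⊕ Fin m → ZMod 2) ≃ₗ[ZMod 2] (Fin m ⊕ Fin m → ZMod 2),
        ∀ v, Cfsg.quadFormPlus m (ZMod 2) v + f2Pol m v w =
          Cfsg.quadFormPlus m (ZMod 2) (g v)) ∨
    (Cfsg.quadFormPlus m (ZMod 2) w ≠ 0 ∧
      ∃ g : (Fin m ⊕ Fin m → ZMod 2) ≃ₗ[ZMod 2] ((Fin (m - 1) ⊕ Fin (m - 1)) ⊕ Fin 2 → ZMod 2),
        ∀ v, Cfsg.quadFormPlus m (ZMod 2) v + f2Pol m v w =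
          Cfsg.quadFormMinus (m - 1) (ZMod 2) 1 1 (g v)) := by
  have hq : ∀ u v : Fin m ⊕ Fin m → ZMod 2, Cfsg.quadFormPlus m (ZMod 2) (u + v) =
      Cfsg.quadFormPlus m (ZMod 2) u + Cfsg.quadFormPlus m (ZMod 2) v + f2Pol m u v := fun u v => by
    simp only [f2Pol]; ring
  by_cases hw : Cfsg.quadFormPlus m (ZMod 2) w = 0
  · exact Or.inl ⟨hw, exists_equiv_twist hq hw⟩
  · refine Or.inr ⟨hw, ?_⟩
    obtain ⟨Q, hQ⟩ := exists_twist w
    have hp : ∀ u v, polar Q u v = f2Pol m u v := fun u v => by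
      have hlin : f2Pol m (u + v) w = f2Pol m u w + f2Pol m v w := by
        rw [f2Pol_eq_polar, f2Pol_eq_polar, f2Pol_eq_polar, QuadraticMap.polar_add_left]
      simp only [QuadraticMap.polar, hQ, hlin, hq u v]
      ring
    obtain ⟨k, hc⟩ := exists_finite_witt_decomposition Q
      (fun r _ hr _ => f2Pol_nondeg fun v => by rw [← hp]; exact hr v trivial)
    have hd : Module.finrank (ZMod 2) (Fin m ⊕ Fin m → ZMod 2) = 2 * m := by simp; omega
    rcases hc with ⟨hd', e, he⟩ | ⟨hd', -⟩ | ⟨hd', a, b, hab, e, he⟩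
    · exfalso
      obtain rfl : k = m := by omega
      exact not_equiv_twist hq hw (card_zeros_plus_f2_ne hm) e fun v => by rw [← hQ, he]
    · omega
    · obtain rfl : k = m - 1 := by omega
      obtain ⟨T, hT⟩ := exists_quadFormMinus_equiv (a' := (1 : ZMod 2)) (b' := 1) hab
        (fun z₁ z₂ => by revert z₁ z₂; decide) (m - 1)
      exact ⟨e.trans T, fun v => by rw [← hQ, he, LinearEquiv.trans_apply, hT]⟩

/-- Every form with this polarisation is a unique twist of the plus form. -/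
theorem existsUnique_twist {q : (Fin m ⊕ Fin m → ZMod 2) → ZMod 2}
    (hq : ∀ u v, q (u + v) = q u + q v + f2Pol m u v) :
    ∃! w, ∀ v, q v = Cfsg.quadFormPlus m (ZMod 2) v + f2Pol m v w := by
  let d : (Fin m ⊕ Fin m → ZMod 2) →+ ZMod 2 :=
    AddMonoidHom.mk' (fun v => q v + Cfsg.quadFormPlus m (ZMod 2) v) fun u v => by
      rw [hq]
      simp only [f2Pol, sub_eq_add_neg, CharTwo.neg_eq]
      linear_combination (Cfsg.quadFormPlus m (ZMod 2) (u + v)) * CharTwo.two_eq_zero (R := ZMod 2)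
  have hnd : (polarBilin (Classical.plusQF m (ZMod 2))).Nondegenerate := by
    refine ⟨fun u hu => f2Pol_nondeg fun v => ?_, fun u hu => f2Pol_nondeg fun v => ?_⟩
    · rw [f2Pol_eq_polar]; exact hu v
    · rw [f2Pol_eq_polar, QuadraticMap.polar_comm]; exact hu v
  obtain ⟨w, hw⟩ := exists_left_eq (σ := RingHom.id (ZMod 2)) (ε := 1)
    (B := polarBilin (Classical.plusQF m (ZMod 2))) (fun _ => rfl) (one_mul 1)
    (fun x y => by
      rw [RingHom.id_apply, one_mul, QuadraticMap.polarBilin_apply_apply,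
        QuadraticMap.polarBilin_apply_apply, QuadraticMap.polar_comm])
    (d.toZModLinearMap 2) (fun r hr => by
      have : r = 0 := hnd.1 r fun v => by rw [hr]; rfl
      subst this
      exact map_zero d)
  have hw' : ∀ v, q v = Cfsg.quadFormPlus m (ZMod 2) v + f2Pol m v w := fun v => by
    have h : f2Pol m v w = q v + Cfsg.quadFormPlus m (ZMod 2) v := by
      rw [f2Pol_eq_polar, QuadraticMap.polar_comm, ← QuadraticMap.polarBilin_apply_apply, hw]
      rfl
    rw [h]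
    linear_combination -(Cfsg.quadFormPlus m (ZMod 2) v) * CharTwo.two_eq_zero (R := ZMod 2)
  refine ⟨w, hw', fun w' hw'' => sub_eq_zero.1 (f2Pol_nondeg fun v => ?_)⟩
  have h : f2Pol m v w' = f2Pol m v w := add_left_cancel ((hw'' v).symm.trans (hw' v))
  rw [f2Pol_eq_polar, f2Pol_eq_polar, QuadraticMap.polar_comm (⇑(Classical.plusQF m (ZMod 2))) v,
    QuadraticMap.polar_comm (⇑(Classical.plusQF m (ZMod 2))) v] at h
  rw [f2Pol_eq_polar, QuadraticMap.polar_sub_left, h, sub_self]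

end Cfsg.Agent.Forms
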